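import Mathlib
import Cfsg.Agent.Lib.Helper58.OElm.Defs

/-!
# OELM (S5990), package [NUMDERM]

Pure arithmetic: if the right-hand side `RhsOddM d m i c` fails then the admissible pair
`(J, D) = (2d / c, 2d % c)` has no good `j`, or we are in one of the two cases excluded by the
index hypothesis.
-/

set_option autoImplicit false

namespace Cfsg.Agent.Lib.Helper15.OElm

open Cfsg.Agent.Lib.Helper58.OElm

/-- The arithmetic core of [NUMDERM], with `m = c M + l`, `2 d = c J₀ + k`. -/
theorem numDerM_core (d m i c M l J₀ k : ℕ) (hmd : m + 2 ≤ 2 * d) (hcpos : 0 < c)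
    (hml : c * M + l = m) (hlc : l < c) (hnk : c * J₀ + k = 2 * d) (hkc : k < c)
    (hR : ¬ ((Odd i ∧ (k = 0 ∨ (c ≤ m ∧ 0 < l ∧ l ≤ k))) ∨
      (Even i ∧ ((k = 0 ∧ (Even J₀ ∨ (l = 0 ∧ Odd M))) ∨
        (0 < k ∧ c ≤ m ∧ ((0 < l ∧ l < k) ∨ (l = 0 ∧ Odd M) ∨
          (l = k ∧ Even (J₀ + M)))))))) :
    (∃ J D : ℕ, 1 ≤ J ∧ D + c * J = 2 * d ∧ (D = 0 → (Even i ∧ Odd J)) ∧
      ∀ j : ℕ, c * j ≤ m → j ≤ J → ¬ GoodM i (m - c * j) D J j) ∨
    (m < c ∧ m < k) ∨ (m < c ∧ m = k ∧ (Odd i ∨ (Even i ∧ Even J₀))) := by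
  by_cases hB : m < c ∧ m < k
  · exact Or.inr (Or.inl hB)
  by_cases hC : m < c ∧ m = k ∧ (Odd i ∨ (Even i ∧ Even J₀))
  · exact Or.inr (Or.inr hC)
  left
  have hJ1 : 1 ≤ J₀ := by
    by_contra hcon
    have h0 : J₀ = 0 := by omega
    subst h0
    exact hB ⟨by omega, by omega⟩
  have hM0 : ¬ c ≤ m → M = 0 := by
    intro hcm
    by_contra hne
    have : c ≤ c * M := Nat.le_mul_of_pos_right c (Nat.pos_of_ne_zero hne)
    omega
  refine ⟨J₀, k, hJ1, by omega, ?_, ?_⟩
  · intro hk0
    rcases Nat.even_or_odd i with hie | hio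
    · refine ⟨hie, ?_⟩
      by_contra hcon
      exact hR (Or.inr ⟨hie, Or.inl ⟨hk0, Or.inl (Nat.not_odd_iff_even.mp hcon)⟩⟩)
    · exact absurd (Or.inl ⟨hio, Or.inl hk0⟩) hR
  · intro j hj1 hj2 hgood
    have hjM : m - c * j < c → j = M := by
      intro he
      have h1 : c * j < c * (M + 1) := by rw [mul_add, mul_one]; omega
      have h2 : c * M < c * (j + 1) := by rw [mul_add, mul_one]; omega
      have h1' := Nat.lt_of_mul_lt_mul_left h1
      have h2' := Nat.lt_of_mul_lt_mul_left h2
      omega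
    rcases hgood with ⟨he0, hek⟩ | ⟨he0, hie, hjo⟩ | ⟨he0, hek, hpar⟩
    · have hj := hjM (by omega)
      have hel : m - c * j = l := by rw [hj]; omega
      rw [hel] at he0 hek
      by_cases hcm : c ≤ m
      · apply hR
        rcases Nat.even_or_odd i with hie | hio
        · exact Or.inr ⟨hie, Or.inr ⟨by omega, hcm, Or.inl ⟨he0, hek⟩⟩⟩
        · exact Or.inl ⟨hio, Or.inr ⟨hcm, he0, by omega⟩⟩
      · apply hB
        have h0 := hM0 hcm
        rw [h0, mul_zero, zero_add] at hml
        exact ⟨by omega, by omega⟩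
    · have hj := hjM (by omega)
      have hel : m - c * j = l := by rw [hj]; omega
      rw [hel] at he0
      rw [hj] at hjo
      apply hR
      right
      refine ⟨hie, ?_⟩
      by_cases hk0 : k = 0
      · exact Or.inl ⟨hk0, Or.inr ⟨he0, hjo⟩⟩
      · refine Or.inr ⟨by omega, ?_, Or.inr (Or.inl ⟨he0, hjo⟩)⟩
        by_contra hcm
        have h0 := hM0 hcm
        rw [h0] at hjo
        exact absurd hjo (by decide)
    · have hj := hjM (by omega)
      have hel : m - c * j = l := by rw [hj]; omega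
      rw [hel] at he0 hek
      rw [hj] at hpar
      by_cases hcm : c ≤ m
      · apply hR
        rcases Nat.even_or_odd i with hie | hio
        · refine Or.inr ⟨hie, Or.inr ⟨by omega, hcm, Or.inr (Or.inr ⟨hek, ?_⟩)⟩⟩
          rcases hpar with h | h
          · exact absurd hie (Nat.not_even_iff_odd.mpr h)
          · exact h
        · exact Or.inl ⟨hio, Or.inr ⟨hcm, he0, by omega⟩⟩
      · apply hC
        have h0 := hM0 hcm
        rw [h0, add_zero] at hpar
        rw [h0, mul_zero, zero_add] at hml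
        refine ⟨by omega, by omega, ?_⟩
        rcases hpar with h | h
        · exact Or.inl h
        · rcases Nat.even_or_odd i with hie | hio
          · exact Or.inr ⟨hie, h⟩
          · exact Or.inl hio

theorem pkgNumDerM : PkgNumDerM := by
  intro d m i c hd hm hme hmd hi hc hR
  have hcpos : 0 < c := by rw [hc]; split_ifs <;> omega
  have hml : c * (m / c) + m % c = m := Nat.div_add_mod m c
  have hlc : m % c < c := Nat.mod_lt _ hcpos
  have hnk : c * ((2 * d) / c) + (2 * d) % c = 2 * d := Nat.div_add_mod (2 * d) c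
  have hkc : (2 * d) % c < c := Nat.mod_lt _ hcpos
  have hcore := numDerM_core d m i c (m / c) (m % c) ((2 * d) / c) ((2 * d) % c) hmd hcpos
    hml hlc hnk hkc (by
      intro hN
      apply hR
      rcases hN with h | ⟨hie, h⟩
      · exact Or.inl h
      · have hci : c = i := by rw [hc, if_pos hie]
        refine Or.inr ⟨hie, ?_⟩
        rw [← hci]
        rcases h with h | ⟨hk0, him, h3⟩
        · exact Or.inl h
        · right
          refine ⟨hk0, him, ?_⟩
          rcases h3 with h | h | ⟨hlk, hev⟩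
          · exact Or.inl h
          · exact Or.inr (Or.inl h)
          · right; right
            refine ⟨hlk, ?_⟩
            have h1 : 2 * d + m - 2 * ((2 * d) % c) = c * ((2 * d) / c + m / c) := by
              rw [mul_add]; omega
            rw [h1, Nat.mul_div_cancel_left _ hcpos]
            exact hev)
  rcases hcore with h | h | ⟨h1, h2, h3⟩
  · exact Or.inl h
  · exact Or.inr (Or.inl h)
  · refine Or.inr (Or.inr ⟨h1, h2, ?_⟩)
    rcases h3 with h | ⟨hie, h⟩
    · exact Or.inl h
    · have hci : c = i := by rw [hc, if_pos hie]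
      right
      rw [← hci]; exact h

end Cfsg.Agent.Lib.Helper15.OElm
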