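import Mathlib
import Cfsg.Agent.Lib.Helper58.OElm.Defs

/-!
# OELM (S5990), package [NUMFIXM]

Pure arithmetic: the right-hand side `RhsOddM d m i c` yields a good `j` for every admissible
pair `(J, D)`.
-/

set_option autoImplicit false

namespace Cfsg.Agent.Lib.Helper15.OElm

open Cfsg.Agent.Lib.Helper58.OElm

/-- The arithmetic core of [NUMFIXM], with `m = c M + l`, `D = c S + k`, `2 d = D + c J`. -/
theorem numFixM_core (d m i c M l S k J D : ℕ) (hm : 2 ≤ m) (hmd : m + 2 ≤ 2 * d)
    (hcpos : 0 < c) (hml : c * M + l = m) (hlc : l < c) (hDk : c * S + k = D) (hkc : k < c)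
    (hDJ : D + c * J = 2 * d) (hJ : 1 ≤ J) (hD0 : D = 0 → (Even i ∧ Odd J))
    (hR : (Odd i ∧ (k = 0 ∨ (c ≤ m ∧ 0 < l ∧ l ≤ k))) ∨
      (Even i ∧ ((k = 0 ∧ (Even (S + J) ∨ (l = 0 ∧ Odd M))) ∨
        (0 < k ∧ c ≤ m ∧ ((0 < l ∧ l < k) ∨ (l = 0 ∧ Odd M) ∨
          (l = k ∧ Even (S + J + M))))))) :
    ∃ j : ℕ, c * j ≤ m ∧ j ≤ J ∧ GoodM i (m - c * j) D J j := by
  by_cases hDm : m < D
  · exact ⟨0, by omega, by omega, Or.inl ⟨by omega, by simpa using hDm⟩⟩
  push Not at hDm
  by_cases hJM : J < M
  · have h1 : c * J + c ≤ c * M := by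
      have h2 : c * (J + 1) ≤ c * M := Nat.mul_le_mul_left c hJM
      rw [mul_add, mul_one] at h2; exact h2
    exact ⟨J, by omega, le_refl J, Or.inl ⟨by omega, by omega⟩⟩
  push Not at hJM
  have heM : m - c * M = l := by omega
  have std : GoodM i l D J M → ∃ j, c * j ≤ m ∧ j ≤ J ∧ GoodM i (m - c * j) D J j := by
    intro hg
    exact ⟨M, by omega, hJM, by rw [heM]; exact hg⟩
  -- the choice `j = M - 1` when `l = 0` and `c < D` or `c = D` with the parity condition
  have prev : l = 0 → ((c < D) ∨ (c = D ∧ (Odd i ∨ (Odd J ∧ Even M)))) →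
      ∃ j, c * j ≤ m ∧ j ≤ J ∧ GoodM i (m - c * j) D J j := by
    intro hl0 hcD
    have hM1 : 1 ≤ M := by
      by_contra h
      have h0 : M = 0 := by omega
      subst h0
      omega
    obtain ⟨M', rfl⟩ : ∃ M', M = M' + 1 := ⟨M - 1, by omega⟩
    rw [mul_add, mul_one] at hml
    have he : m - c * M' = c := by omega
    refine ⟨M', by omega, by omega, ?_⟩
    rw [he]
    rcases hcD with h | ⟨h, hpar⟩
    · exact Or.inl ⟨hcpos, h⟩
    · refine Or.inr (Or.inr ⟨hcpos, h, ?_⟩)
      rcases hpar with h1 | ⟨hJo, hMe⟩
      · exact Or.inl h1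
      · right
        obtain ⟨a, ha⟩ := hJo
        obtain ⟨b, hb⟩ := hMe
        exact ⟨a + b, by omega⟩
  by_cases hJeq : J = M
  · have hcJ : c * J = c * M := by rw [hJeq]
    by_cases hl0 : l = 0
    · have hS1k : k = 0 → 1 ≤ S := by
        intro hk0
        by_contra h
        have h0 : S = 0 := by omega
        subst h0
        omega
      rcases hR with ⟨hio, hO⟩ | ⟨hie, hE⟩
      · rcases hO with hk0 | ⟨_, hl, _⟩
        · have hcS : c ≤ c * S := Nat.le_mul_of_pos_right c (hS1k hk0)
          apply prev hl0
          by_cases hcD : c < D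
          · exact Or.inl hcD
          · exact Or.inr ⟨by omega, Or.inl hio⟩
        · omega
      · rcases hE with ⟨hk0, hor⟩ | ⟨hk0, hcm, h3⟩
        · by_cases hMo : Odd M
          · exact std (Or.inr (Or.inl ⟨hl0, hie, hMo⟩))
          · have hEv : Even (S + J) := by
              rcases hor with h | h
              · exact h
              · exact absurd h.2 hMo
            have hS1 := hS1k hk0
            have hS2 : 2 ≤ S := by
              by_contra h
              have hS1' : S = 1 := by omega
              rw [hS1', hJeq] at hEv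
              apply hMo
              obtain ⟨a, ha⟩ := hEv
              exact ⟨a - 1, by omega⟩
            have h2 : c * 2 ≤ c * S := Nat.mul_le_mul_left c hS2
            exact prev hl0 (Or.inl (by omega))
        · rcases h3 with ⟨hl, _⟩ | ⟨_, hMo⟩ | ⟨hlk, _⟩
          · omega
          · exact std (Or.inr (Or.inl ⟨hl0, hie, hMo⟩))
          · omega
    · exact std (Or.inl ⟨by omega, by omega⟩)
  · have hMJ : M < J := by omega
    rcases hR with ⟨hio, hO⟩ | ⟨hie, hE⟩
    · rcases hO with hk0 | ⟨hcm, hl, hlk⟩
      · have hS1 : 1 ≤ S := by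
          by_contra h
          have hS0 : S = 0 := by omega
          subst hS0
          have hD0' : D = 0 := by omega
          exact (Nat.not_even_iff_odd.mpr hio) (hD0 hD0').1
        have hcS : c ≤ c * S := Nat.le_mul_of_pos_right c hS1
        by_cases hl0 : l = 0
        · have hSM : S ≤ M := by
            have h1 : c * S ≤ c * M := by omega
            exact Nat.le_of_mul_le_mul_left h1 hcpos
          have hsplit : c * (M - S) + c * S = c * M := by
            rw [← mul_add, Nat.sub_add_cancel hSM]
          have he : m - c * (M - S) = D := by omega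
          refine ⟨M - S, by omega, by omega, ?_⟩
          rw [he]
          exact Or.inr (Or.inr ⟨by omega, rfl, Or.inl hio⟩)
        · exact std (Or.inl ⟨by omega, by omega⟩)
      · by_cases hlD : l < D
        · exact std (Or.inl ⟨hl, hlD⟩)
        · exact std (Or.inr (Or.inr ⟨hl, by omega, Or.inl hio⟩))
    · rcases hE with ⟨hk0, hor⟩ | ⟨hk0, hcm, h3⟩
      · by_cases hspec : l = 0 ∧ Odd M
        · exact std (Or.inr (Or.inl ⟨hspec.1, hie, hspec.2⟩))
        · have hEv : Even (S + J) := by
            rcases hor with h | h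
            · exact h
            · exact absurd h hspec
          have hS1 : 1 ≤ S := by
            by_contra h
            have hS0 : S = 0 := by omega
            subst hS0
            have hD0' : D = 0 := by omega
            have hJo := (hD0 hD0').2
            rw [zero_add] at hEv
            exact (Nat.not_even_iff_odd.mpr hJo) hEv
          have hcS : c ≤ c * S := Nat.le_mul_of_pos_right c hS1
          by_cases hl0 : l = 0
          · have hMe : Even M := by
              by_contra hcon
              exact hspec ⟨hl0, Nat.not_even_iff_odd.mp hcon⟩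
            apply prev hl0
            by_cases hS2 : 2 ≤ S
            · have h2 : c * 2 ≤ c * S := Nat.mul_le_mul_left c hS2
              exact Or.inl (by omega)
            · have hS1' : S = 1 := by omega
              subst hS1'
              refine Or.inr ⟨by omega, Or.inr ⟨?_, hMe⟩⟩
              obtain ⟨a, ha⟩ := hEv
              exact ⟨a - 1, by omega⟩
          · exact std (Or.inl ⟨by omega, by omega⟩)
      · rcases h3 with ⟨hl, hlk⟩ | ⟨hl0, hMo⟩ | ⟨hlk, hEv⟩
        · exact std (Or.inl ⟨hl, by omega⟩)
        · exact std (Or.inr (Or.inl ⟨hl0, hie, hMo⟩))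
        · by_cases hS0 : S = 0
          · subst hS0
            rw [zero_add] at hEv
            exact std (Or.inr (Or.inr ⟨by omega, by omega, Or.inr hEv⟩))
          · have hcS : c ≤ c * S := Nat.le_mul_of_pos_right c (by omega)
            exact std (Or.inl ⟨by omega, by omega⟩)

theorem pkgNumFixM : PkgNumFixM := by
  intro d m i c hd hm hme hmd hi hc hR J D hJ hDJ hD0
  have hcpos : 0 < c := by rw [hc]; split_ifs <;> omega
  have hml : c * (m / c) + m % c = m := Nat.div_add_mod m c
  have hlc : m % c < c := Nat.mod_lt _ hcpos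
  have hkD : (2 * d) % c = D % c := by rw [← hDJ, Nat.add_mul_mod_self_left]
  have hDk : c * (D / c) + (2 * d) % c = D := by
    rw [hkD]; exact Nat.div_add_mod D c
  have hkc : (2 * d) % c < c := Nat.mod_lt _ hcpos
  have hJ0eq : (2 * d) / c = D / c + J := by
    rw [← hDJ, Nat.add_mul_div_left _ _ hcpos]
  have hnk : c * ((2 * d) / c) + (2 * d) % c = 2 * d := Nat.div_add_mod (2 * d) c
  refine numFixM_core d m i c (m / c) (m % c) (D / c) ((2 * d) % c) J D hm hmd hcpos hml hlc
    hDk hkc hDJ hJ hD0 ?_
  rcases hR with h | ⟨hie, h⟩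
  · exact Or.inl h
  · have hci : c = i := by rw [hc, if_pos hie]
    rw [← hci] at h
    refine Or.inr ⟨hie, ?_⟩
    rcases h with ⟨hk0, hor⟩ | ⟨hk0, him, h3⟩
    · left
      rw [hJ0eq] at hor
      exact ⟨hk0, hor⟩
    · right
      refine ⟨hk0, him, ?_⟩
      rcases h3 with h | h | ⟨hlk, hev⟩
      · exact Or.inl h
      · exact Or.inr (Or.inl h)
      · right; right
        refine ⟨hlk, ?_⟩
        have h2 : (2 * d + m - 2 * ((2 * d) % c)) / c = D / c + J + m / c := by
          have h1 : 2 * d + m - 2 * ((2 * d) % c) = c * ((2 * d) / c + m / c) := by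
            rw [mul_add]; omega
          rw [h1, Nat.mul_div_cancel_left _ hcpos, hJ0eq]
        rw [h2] at hev
        exact hev

end Cfsg.Agent.Lib.Helper15.OElm
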